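import Cfsg.Agent.H53.Omega
import Cfsg.Agent.H47.Cyc

/-! Bridges between the frozen hypotheses of Peterfalvi 3, 4 and the ambient ones. -/

set_option autoImplicit false

open scoped ComplexConjugate
open Cfsg Cfsg.Agent.H49 Cfsg.Agent.H54 Subgroup

namespace Cfsg.Agent.H53

variable {G : Type*} [Group G] [Fintype G] {K W₁ W₂ : Subgroup G}

omit [Fintype G] in
theorem sn_cent (h : IsSelfNormalizingCyclic W₁ W₂) {x : G} (hx : x ∈ cycTIset W₁ W₂) :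
    𝒞[x] = W₁ ⊔ W₂ := by
  rw [← h.2.2.2.2.2 {x} (by rintro _ rfl; exact hx) ⟨x, rfl⟩]
  ext g
  rw [mem_cent1, mem_set_normalizer_iff]
  simp only [Set.mem_singleton_iff]
  refine ⟨fun e y => ⟨?_, fun e' => ?_⟩, fun e => ?_⟩
  · rintro rfl; rw [e]; group
  · calc y = g⁻¹ * (g * y * g⁻¹) * g := by group
      _ = g⁻¹ * (g * x) := by rw [e', e]; group
      _ = x := by group
  · have := (e x).1 rfl
    rwa [mul_inv_eq_iff_eq_mul] at this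

theorem sn_ti (h : IsSelfNormalizingCyclic W₁ W₂) {g x : G} (hx : x ∈ cycTIset W₁ W₂)
    (hy : g * x * g⁻¹ ∈ cycTIset W₁ W₂) : g ∈ W₁ ⊔ W₂ := by
  have e : g ∈ 𝒩(W₁ ⊔ W₂) := by
    rw [mem_norm_iff_cj]
    conv_lhs => rw [← sn_cent h hx]
    rw [cj_cent1, sn_cent h hy]
  have e1 := H47.cyc_norm h.2.2.2.2.1 le_sup_left e
  have e2 := H47.cyc_norm h.2.2.2.2.1 le_sup_right e
  rw [← h.2.2.2.2.2 _ subset_rfl ⟨x, hx⟩, mem_set_normalizer_iff]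
  intro y
  simp only [Set.mem_sdiff, Set.mem_union, SetLike.mem_coe]
  rw [mem_normalizer_iff.1 e y, mem_normalizer_iff.1 e1 y, mem_normalizer_iff.1 e2 y]

theorem cycTI_of_selfNorm (h : IsSelfNormalizingCyclic W₁ W₂) (ho : Odd (Nat.card ↥(W₁ ⊔ W₂))) :
    CycTIHyp ⊤ W₁ W₂ :=
  ⟨le_top, h.1, h.2.1, h.2.2.1, h.2.2.2.1, h.2.2.2.2.1, ho, fun _ _ _ hx hy => sn_ti h hx hy⟩

theorem selfNorm_of_cycTI (h : CycTIHyp ⊤ W₁ W₂) : IsSelfNormalizingCyclic W₁ W₂ := by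
  refine ⟨h.ne₁, h.ne₂, h.inf, h.comm, h.cyclic, fun X hX ⟨x, hx⟩ => le_antisymm (fun g hg => ?_)
    fun g hg => ?_⟩
  · exact h.ti g (mem_top g) x (hX hx) (hX ((mem_set_normalizer_iff.1 hg x).1 hx))
  · have hc := H52.comm_of_isCyclic h.cyclic
    refine mem_set_normalizer_iff.2 fun y => ⟨fun hy => ?_, fun hy => ?_⟩
    · rwa [hc g hg y (hX hy).1, mul_inv_cancel_right]
    · have := hc g⁻¹ (inv_mem hg) _ (hX hy).1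
      rwa [← mul_inv_cancel_right (g * y * g⁻¹) g⁻¹, ← this, show g⁻¹ * (g * y * g⁻¹) * g⁻¹⁻¹ = y by
        group] at hy

omit [Fintype G] in
theorem primeTI_of_frozen [hK : K.Normal] (hKW₁ : K ⊓ W₁ = ⊥) (hKW₁' : K ⊔ W₁ = ⊤) (hW₁ : W₁ ≠ ⊥)
    (hW₁c : IsCyclic W₁) (hHall : Nat.Coprime (Nat.card W₁) W₁.index) (hW₂ : W₂ ≠ ⊥)
    (hW₂c : IsCyclic W₂) (hW₂K : W₂ ≤ K)
    (hC : ∀ x ∈ W₁, x ≠ 1 → K ⊓ Subgroup.centralizer ({x} : Set G) = W₂)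
    (hodd : Odd (Nat.card ↥(W₁ ⊔ W₂))) : PrimeTIHyp ⊤ K W₁ W₂ :=
  ⟨⟨hKW₁', hKW₁, le_normalizer_of_normal⟩, hW₁, by rwa [relIndex_top_right], hW₁c, hW₂, hW₂K, hW₂c,
    hC, hodd⟩

omit [Fintype G] in
theorem resL_mul (ω ω' : Dual (W₁ ⊔ W₂)) : resL (ω * ω') = resL ω * resL ω' := rfl
omit [Fintype G] in
theorem resR_mul (ω ω' : Dual (W₁ ⊔ W₂)) : resR (ω * ω') = resR ω * resR ω' := rfl

omit [Fintype G] in
theorem resR_eq_iff {ω ω' : Dual (W₁ ⊔ W₂)} :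
    resR ω = resR ω' ↔ ∀ w : ↥(W₁ ⊔ W₂), (w : G) ∈ W₂ → ω w = ω' w :=
  ⟨fun h w hw => DFunLike.congr_fun h ⟨w, hw⟩, fun h => MonoidHom.ext fun w => h _ w.2⟩

omit [Fintype G] in
theorem resL_eq_iff {ω ω' : Dual (W₁ ⊔ W₂)} :
    resL ω = resL ω' ↔ ∀ w : ↥(W₁ ⊔ W₂), (w : G) ∈ W₁ → ω w = ω' w :=
  ⟨fun h w hw => DFunLike.congr_fun h ⟨w, hw⟩, fun h => MonoidHom.ext fun w => h _ w.2⟩

end Cfsg.Agent.H53
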